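import Cfsg.Prelude.Def_Local
import Cfsg.Prelude.Def_KGroupFacts
import Cfsg.Agent.Lib.Components.Bender

/-!
Groups with prescribed simple generalized Fitting subgroup are determined by their class of
subgroups of outer automorphisms.
-/

set_option autoImplicit false

namespace Cfsg.Agent.Lib.Chev.D4Three

open Subgroup

theorem center_simple {K : Type*} [Group K] [IsSimpleGroup K] (hK : ¬ IsMulCommutative K) :
    Subgroup.center K = ⊥ := by
  refine (Subgroup.Normal.eq_bot_or_eq_top (inferInstance : (Subgroup.center K).Normal)).resolve_right ?_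
  intro h
  exact hK ⟨⟨fun a b => (Subgroup.mem_center_iff.1 (h ▸ Subgroup.mem_top a) b).symm⟩⟩

/-- `G` embeds in `Aut K` onto an overgroup of `Inn K`. -/
theorem exists_embedding {G K : Type*} [Group G] [Finite G] [Group K] [IsSimpleGroup K]
    (hK : ¬ IsMulCommutative K) [hn : (Cfsg.generalizedFittingSubgroup G).Normal]
    (e : ↥(Cfsg.generalizedFittingSubgroup G) ≃* K) :
    ∃ φ : G →* MulAut K, Function.Injective φ ∧
      (Cfsg.generalizedFittingSubgroup G).map φ = Cfsg.Inn K ∧
      Nat.card ↥(φ.range.map (QuotientGroup.mk' (Cfsg.Inn K))) =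
        Nat.card (G ⧸ Cfsg.generalizedFittingSubgroup G) := by
  set N := Cfsg.generalizedFittingSubgroup G with hN
  let φ : G →* MulAut K := MonoidHom.mk' (fun g => (e.symm.trans (MulAut.conjNormal g)).trans e)
    fun a b => MulEquiv.ext fun x => by simp [MulAut.mul_apply]
  have hφN : ∀ n : N, φ (n : G) = MulAut.conj (e n) := fun n => MulEquiv.ext fun x => by
    show e (MulAut.conjNormal (n : G) (e.symm x)) = e n * x * (e n)⁻¹
    rw [show MulAut.conjNormal (n : G) (e.symm x) = n * e.symm x * n⁻¹ from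
      Subtype.ext (by simp [MulAut.conjNormal_apply]), map_mul, map_mul, map_inv, e.apply_symm_apply]
  have hinj : Function.Injective φ := by
    rw [injective_iff_map_eq_one]
    intro g hg
    have hc : g ∈ Subgroup.centralizer (N : Set G) := by
      refine Subgroup.mem_centralizer_iff.2 fun n hn' => ?_
      have h1 := DFunLike.congr_fun hg (e ⟨n, hn'⟩)
      have h2 : MulAut.conjNormal g (⟨n, hn'⟩ : N) = ⟨n, hn'⟩ := e.injective (by
        simpa [φ] using h1)
      have h3 := congrArg Subtype.val h2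
      rw [MulAut.conjNormal_apply] at h3
      exact (mul_inv_eq_iff_eq_mul.1 h3).symm
    have hgN : g ∈ N := Cfsg.Agent.Lib.Components.centralizer_gfs_le hc
    have h4 : e ⟨g, hgN⟩ = 1 := by
      have h5 : e ⟨g, hgN⟩ ∈ Subgroup.center K := Subgroup.mem_center_iff.2 fun x => by
        have := DFunLike.congr_fun ((hφN ⟨g, hgN⟩).symm.trans hg) x
        simp only [MulAut.conj_apply, MulAut.one_apply] at this
        exact (mul_inv_eq_iff_eq_mul.1 this).symm
      rwa [center_simple hK, Subgroup.mem_bot] at h5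
    rw [← map_one e] at h4
    exact congrArg Subtype.val (e.injective h4)
  have hmap : N.map φ = Cfsg.Inn K := by
    ext x
    constructor
    · rintro ⟨n, hn', rfl⟩
      exact ⟨e ⟨n, hn'⟩, (hφN ⟨n, hn'⟩).symm⟩
    · rintro ⟨k, rfl⟩
      exact ⟨(e.symm k : G), (e.symm k).2, by rw [hφN, e.apply_symm_apply]⟩
  refine ⟨φ, hinj, hmap, ?_⟩
  rw [MonoidHom.map_range]
  have hker : ((QuotientGroup.mk' (Cfsg.Inn K)).comp φ).ker = N := by
    ext g
    rw [MonoidHom.mem_ker, MonoidHom.comp_apply, QuotientGroup.mk'_apply, QuotientGroup.eq_one_iff,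
      ← hmap, Subgroup.mem_map_iff_mem hinj]
  rw [← Subgroup.index_ker, hker, Subgroup.index_eq_card]

/-- Two such groups with conjugate images in `Out K` are isomorphic. -/
theorem iso_of_conj {G G' K : Type*} [Group G] [Finite G] [Group G'] [Finite G'] [Group K]
    [IsSimpleGroup K] (hK : ¬ IsMulCommutative K)
    [(Cfsg.generalizedFittingSubgroup G).Normal] [(Cfsg.generalizedFittingSubgroup G').Normal]
    (e : ↥(Cfsg.generalizedFittingSubgroup G) ≃* K)
    (e' : ↥(Cfsg.generalizedFittingSubgroup G') ≃* K) (m : ℕ)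
    (hG : Nat.card (G ⧸ Cfsg.generalizedFittingSubgroup G) = m)
    (hG' : Nat.card (G' ⧸ Cfsg.generalizedFittingSubgroup G') = m)
    (hconj : ∀ H H' : Subgroup (Cfsg.Out K), Nat.card H = m → Nat.card H' = m →
      ∃ g, H.map (MulAut.conj g).toMonoidHom = H') :
    Nonempty (G ≃* G') := by
  obtain ⟨φ, hi, hm, hc⟩ := exists_embedding hK e
  obtain ⟨φ', hi', hm', hc'⟩ := exists_embedding hK e'
  obtain ⟨g, hg⟩ := hconj _ _ (hc.trans hG) (hc'.trans hG')
  obtain ⟨α, rfl⟩ := QuotientGroup.mk'_surjective (Cfsg.Inn K) g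
  set q := QuotientGroup.mk' (Cfsg.Inn K)
  have h1 : Cfsg.Inn K ≤ φ.range := hm ▸ Subgroup.map_le_range φ _
  have h2 : Cfsg.Inn K ≤ φ'.range := hm' ▸ Subgroup.map_le_range φ' _
  have key : φ.range.map (MulAut.conj α).toMonoidHom = φ'.range := by
    have hc1 : (φ.range.map (MulAut.conj α).toMonoidHom).map q = φ'.range.map q := by
      rw [← hg, Subgroup.map_map, Subgroup.map_map]
      congr 1
    have hle : q.ker ≤ φ.range.map (MulAut.conj α).toMonoidHom := by
      rw [QuotientGroup.ker_mk']
      intro x hx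
      refine ⟨α⁻¹ * x * α, h1 ?_, by simp [mul_assoc]⟩
      simpa using (inferInstance : (Cfsg.Inn K).Normal).conj_mem x hx α⁻¹
    have hle' : q.ker ≤ φ'.range := by rw [QuotientGroup.ker_mk']; exact h2
    rw [← Subgroup.comap_map_eq_self hle, hc1, Subgroup.comap_map_eq_self hle']
  exact ⟨(MonoidHom.ofInjective hi).trans (((φ.range.equivMapOfInjective _
    (MulAut.conj α).injective).trans (MulEquiv.subgroupCongr key)).trans
      (MonoidHom.ofInjective hi').symm)⟩

end Cfsg.Agent.Lib.Chev.D4Three
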