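import Cfsg.Agent.Lib.Chev.OutNormal

/-!
The outer automorphism group of `D₄(3)`: its subgroups of order 6 are conjugate, because triality
moves every nontrivial diagonal class.
-/

set_option autoImplicit false

namespace Cfsg.Agent.Lib.Chev.D4Three

open Cfsg.Lie Cfsg.Agent.Lib.Chev Subgroup

/-- Two subgroups of order 6 in a group of order 24 whose normal subgroup of order 4 meets no
centralizer of an element of order 3 are conjugate. -/
theorem conj_of_card {O : Type*} [Group O] [Finite O] (hO : Nat.card O = 24) (A : Subgroup O)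
    [A.Normal] (hA : Nat.card A = 4)
    (hfree : ∀ x : O, orderOf x = 3 → ∀ d ∈ A, x * d = d * x → d = 1)
    (H K : Subgroup O) (hH : Nat.card H = 6) (hK : Nat.card K = 6) :
    ∃ g : O, H.map (MulAut.conj g).toMonoidHom = K := by
  haveI : Fact (Nat.Prime 3) := ⟨Nat.prime_three⟩
  have hfact : (24 : ℕ).factorization 3 = 1 := by
    rw [Nat.factorization_def _ Nat.prime_three, show (24 : ℕ) = 3 * 8 from rfl,
      padicValNat.mul (by norm_num) (by norm_num), padicValNat_self,
      padicValNat.eq_zero_of_not_dvd (by norm_num)]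
  have hNP : ∀ P : Subgroup O, Nat.card P = 3 →
      Nat.card ↥(Subgroup.normalizer (P : Set O)) ≤ 6 := by
    intro P hP
    set N := Subgroup.normalizer (P : Set O)
    have hPA : ∀ y ∈ P, y ∈ A → y = 1 := fun y hy hyA => orderOf_eq_one_iff.1
      (Nat.dvd_one.1 (Nat.dvd_gcd (hP ▸ P.orderOf_dvd_natCard hy) (hA ▸ A.orderOf_dvd_natCard hyA)))
    obtain ⟨x, hx⟩ : ∃ x : P, orderOf x = 3 := exists_prime_orderOf_dvd_card' 3 (by rw [hP])
    have hx3 : orderOf (x : O) = 3 := by rw [Subgroup.orderOf_coe, hx]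
    let f : ↥N → O ⧸ A := fun n => ((n : O) : O ⧸ A)
    have hf : Function.Injective f := by
      intro a b h
      have hd : (a : O)⁻¹ * b ∈ A := QuotientGroup.eq.1 h
      have hdN : (a : O)⁻¹ * b ∈ N := mul_mem (inv_mem a.2) b.2
      set d := (a : O)⁻¹ * b
      have h1 : d * (x : O) * d⁻¹ * (x : O)⁻¹ ∈ P :=
        mul_mem ((Subgroup.mem_normalizer_iff.1 hdN _).1 x.2) (inv_mem x.2)
      have h2 : d * (x : O) * d⁻¹ * (x : O)⁻¹ ∈ A := by
        rw [show d * (x : O) * d⁻¹ * (x : O)⁻¹ = d * ((x : O) * d⁻¹ * (x : O)⁻¹) by group]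
        exact mul_mem hd ((inferInstance : A.Normal).conj_mem _ (inv_mem hd) _)
      have h3 := hPA _ h1 h2
      have hcomm : (x : O) * d = d * x := by
        rw [mul_inv_eq_one, mul_inv_eq_iff_eq_mul] at h3
        exact h3.symm
      exact Subtype.ext (inv_mul_eq_one.1 (hfree _ hx3 d hd hcomm))
    have := Nat.card_le_card_of_injective f hf
    have hq : Nat.card (O ⧸ A) = 6 := by
      have := A.card_eq_card_quotient_mul_card_subgroup
      rw [hO, hA] at this
      omega
    omega
  have hsub : ∀ L : Subgroup O, Nat.card L = 6 →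
      ∃ P : Sylow 3 O, L = Subgroup.normalizer ((P : Subgroup O) : Set O) := by
    intro L hL
    obtain ⟨x, hx⟩ : ∃ x : L, orderOf x = 3 := exists_prime_orderOf_dvd_card' 3 (by rw [hL]; norm_num)
    have hP : Nat.card (Subgroup.zpowers (x : O)) = 3 := by
      rw [Nat.card_zpowers, Subgroup.orderOf_coe, hx]
    let P : Sylow 3 O := Sylow.ofCard (Subgroup.zpowers (x : O)) (by rw [hP, hO, hfact, pow_one])
    have hidx : (Subgroup.zpowers x).index = 2 := by
      have := (Subgroup.zpowers x).card_mul_index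
      rw [Nat.card_zpowers, hx, hL] at this
      omega
    haveI := Subgroup.normal_of_index_eq_two hidx
    have hle : L ≤ Subgroup.normalizer (Subgroup.zpowers (x : O) : Set O) := by
      intro l hl
      have hc : ∀ (m : O), m ∈ L → ∀ n ∈ Subgroup.zpowers (x : O),
          m * n * m⁻¹ ∈ Subgroup.zpowers (x : O) := by
        intro m hm n hn
        obtain ⟨k, rfl⟩ := hn
        obtain ⟨j, hj⟩ := (inferInstance : (Subgroup.zpowers x).Normal).conj_mem (x ^ k) ⟨k, rfl⟩ ⟨m, hm⟩
        exact ⟨j, by simpa using congrArg Subtype.val hj⟩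
      refine Subgroup.mem_normalizer_iff.2 fun n => ⟨hc l hl n, fun hn => ?_⟩
      have := hc l⁻¹ (inv_mem hl) _ hn
      rwa [show l⁻¹ * (l * n * l⁻¹) * l⁻¹⁻¹ = n by group] at this
    refine ⟨P, ?_⟩
    exact Subgroup.eq_of_le_of_card_ge hle ((hNP _ hP).trans hL.ge)
  obtain ⟨P, rfl⟩ := hsub H hH
  obtain ⟨Q, rfl⟩ := hsub K hK
  obtain ⟨g, rfl⟩ := MulAction.exists_smul_eq O P Q
  refine ⟨g, ?_⟩
  rw [Sylow.coe_subgroup_smul, Subgroup.map_equiv_normalizer_eq]
  rfl

/-- A triality moves every class of diagonal parameters. -/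
theorem free_check : ∀ π : Equiv.Perm (Fin chevD4.rank), π ^ 3 = 1 → π ≠ 1 →
    π ⟨1, by decide⟩ = ⟨1, by decide⟩ →
    ∀ c e : Fin chevD4.rank → (ZMod 3)ˣ,
      (fun j => c (π j)) = c * mapM (fun i j => D4.fast.A i (D4.fast.sp j)) e →
      ∃ e' : Fin chevD4.rank → (ZMod 3)ˣ, c = mapM (fun i j => D4.fast.A i (D4.fast.sp j)) e' := by
  decide +kernel

instance : Subsingleton (RingAut (ZMod 3)) :=
  ⟨fun a b => RingEquiv.ext fun t => DFunLike.congr_fun
    (Subsingleton.elim a.toRingHom b.toRingHom) t⟩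

theorem conj_diag (θ : ↥(stabUV chevD4 (ZMod 3))) (a : Fin chevD4.rank → (ZMod 3)ˣ) :
    θ.1 * D4.checked.diagHom a * θ.1⁻¹ =
      D4.checked.diagHom (fun j => a ((D4.checked.nodePerm en_D4 θ).symm j)) := by
  have C := D4.checked
  obtain ⟨f, g, H⟩ := D4.checked.nodePerm_frame en_D4 θ
  set π := D4.checked.nodePerm en_D4 θ
  obtain ⟨c, σ, hc0, hf, hg, -⟩ := D4.checked.exists_semilinear en_D4 H
  have hσ : ∀ i t, σ i t = t := fun i t => by
    rw [Subsingleton.elim (σ i : RingAut (ZMod 3)) 1]; rfl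
  rw [mul_inv_eq_iff_eq_mul]
  refine D4.checked.aut_ext fun i t => ?_
  constructor <;> refine Subtype.ext ?_
  · rw [MulAut.mul_apply, MulAut.mul_apply,
      show θ.1 (D4.checked.xgG (chevD4.simple i) t) = D4.checked.xgG (chevD4.simple (π i)) _ from
        Subtype.ext (H.pos i t),
      D4.checked.diagHom_pos,
      show D4.checked.diagHom a (D4.checked.xgG (chevD4.simple i) t) =
        D4.checked.xgG (chevD4.simple i) _ from Subtype.ext (D4.checked.diagHom_pos a i t),
      H.pos, π.symm_apply_apply, hf, hf, hσ, hσ]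
    congr 1; ring
  · rw [MulAut.mul_apply, MulAut.mul_apply,
      show θ.1 (D4.checked.xgG (chevD4.neg (chevD4.simple i)) t) =
        D4.checked.xgG (chevD4.neg (chevD4.simple (π i))) _ from Subtype.ext (H.neg i t),
      D4.checked.diagHom_neg,
      show D4.checked.diagHom a (D4.checked.xgG (chevD4.neg (chevD4.simple i)) t) =
        D4.checked.xgG (chevD4.neg (chevD4.simple i)) _ from Subtype.ext (D4.checked.diagHom_neg a i t),
      H.neg, π.symm_apply_apply, hg, hg, hσ, hσ]
    congr 1; ring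

/-- `Out(D₄(3))` has one class of subgroups of order 6. -/
theorem out_conj (H K : Subgroup (Cfsg.Out ↥(chevD4.group (ZMod 3))))
    (hH : Nat.card H = 6) (hK : Nat.card K = 6) :
    ∃ g, H.map (MulAut.conj g).toMonoidHom = K := by
  haveI : Fact (Nat.Prime 3) := ⟨Nat.prime_three⟩
  have hD : chevD4 ∈ [chevG2, chevB2, chevD4, chevF4, chevE6, chevE7, chevE8] := by simp
  obtain ⟨hc, h0⟩ := conn_all hD
  have hsurj := D4.checked.toOut_surjective (F := ZMod 3) 3 hD
  have hker := D4.checked.ker_toOut_le (F := ZMod 3) en_D4 hc h0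
  have hcart : Nat.card (D4.checked.cartanMap (F := ZMod 3)).ker = 4 := by
    rw [D4.checked.card_ker_cartanMap smith_D4, show D4.fast.l = 4 from rfl]
    simp [Finset.prod_range_succ]
  have hO : Nat.card (Cfsg.Out ↥(chevD4.group (ZMod 3))) = 24 := by
    rw [D4.checked.card_out en_D4 3 hD, range_D4.1, hcart, Nat.card_of_subsingleton (1 : RingAut (ZMod 3))]
  set A := ((D4.checked.nodePerm (F := ZMod 3) en_D4).ker).map (toOut chevD4 (ZMod 3))
  haveI : A.Normal := Subgroup.Normal.map inferInstance _ hsurj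
  have hA : Nat.card A = 4 := by
    have h := A.card_mul_index
    rw [Subgroup.index_map_eq _ hsurj hker, Subgroup.index_ker, range_D4.1, hO] at h
    omega
  refine conj_of_card hO A hA ?_ H K hH hK
  intro x hx d hd hcomm
  obtain ⟨θ, rfl⟩ := hsurj x
  obtain ⟨η, hη, rfl⟩ := hd
  obtain ⟨c, τ, hη'⟩ := (D4.checked.ker_nodePerm en_D4 hc h0 η).1 hη
  rw [Subsingleton.elim τ 1, map_one, mul_one] at hη'
  set π := D4.checked.nodePerm en_D4 θ with hπ
  have hπ3 : π ^ 3 = 1 := by
    rw [hπ, ← map_pow]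
    refine hker ?_
    rw [MonoidHom.mem_ker, map_pow]
    have := pow_orderOf_eq_one (toOut chevD4 (ZMod 3) θ)
    rwa [hx] at this
  have hπne : π ≠ 1 := fun h1 => by
    have hmem : toOut chevD4 (ZMod 3) θ ∈ A := ⟨θ, h1, rfl⟩
    have := A.orderOf_dvd_natCard hmem
    rw [hx, hA] at this
    norm_num at this
  have hπ1 : π (⟨1, by decide⟩ : Fin chevD4.rank) = ⟨1, by decide⟩ := by
    obtain ⟨L, hL, hval⟩ := perm_mem_symLists chevD4
      (D4.checked.nodePerm_symmetry en_D4 bond_D4 θ) (S := symLists chevD4.bonds chevD4.rank chevD4.rank) rfl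
    have key : ∀ L ∈ symLists chevD4.bonds chevD4.rank chevD4.rank, L.getD 1 0 = 1 := by
      decide +kernel
    exact Fin.ext ((hval _).trans (key L hL))
  have hconj : toOut chevD4 (ZMod 3) (θ * η * θ⁻¹ * η⁻¹) = 1 := by
    simp only [map_mul, map_inv]
    rw [hcomm]
    group
  obtain ⟨e, he⟩ := (D4.checked.ker_toOut _).1 hconj
  have hdiag : D4.checked.diagHom ((fun j => c (π.symm j)) * c⁻¹) =
      D4.checked.diagHom (D4.checked.cartanMap e) := by
    rw [map_mul, map_inv, ← conj_diag θ c, ← hη']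
    exact he.symm
  have hinj : (fun j => c (π.symm j)) * c⁻¹ = D4.checked.cartanMap e :=
    (D4.checked.diagField_injective en_D4 _ _ 1 1 h0 (by rw [hdiag])).1
  have hp3 : π.symm ^ 3 = 1 := by
    rw [show π.symm = π⁻¹ from rfl, inv_pow, hπ3, inv_one]
  have hsym1 : π.symm (⟨1, by decide⟩ : Fin chevD4.rank) = ⟨1, by decide⟩ := by
    rw [Equiv.symm_apply_eq, hπ1]
  obtain ⟨e', he'⟩ := free_check π.symm hp3 (fun h => hπne (by
      rw [← Equiv.symm_symm π, h]; rfl)) hsym1 c e (by
    rw [show mapM (fun i j => D4.fast.A i (D4.fast.sp j)) e = D4.checked.cartanMap e from rfl,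
      ← hinj, mul_comm (fun j => c (π.symm j)), mul_inv_cancel_left])
  exact (D4.checked.ker_toOut η).2 ⟨e', by rw [hη', he']; rfl⟩

end Cfsg.Agent.Lib.Chev.D4Three
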